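import Cfsg.Agent.Lib.SchurTwelve.Table
import Cfsg.Agent.Lib.SchurMult.GolayEngine
import Cfsg.Agent.Lib.Golay.Mathieu

/-!
A double cover of the Mathieu group of degree 12 as pairs of permutations.
-/

set_option autoImplicit false

namespace Cfsg.Agent.Lib.SchurTwelve

open Cfsg Cfsg.Agent.Lib.Golay Cfsg.Agent.Lib.SchurMult
open scoped commutatorElement

/-- The image of `w` in a packed table. -/
def look (t w : ℕ) : Fin 24 := ⟨(t >>> (5 * w)) % 32 % 24, Nat.mod_lt _ (by norm_num)⟩

theorem act_inverse : ∀ (i : Fin 7) (w : Fin 24),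
    look (bwd.getD i.1 0) (look (fwd.getD i.1 0) w.1).1 = w ∧
    look (fwd.getD i.1 0) (look (bwd.getD i.1 0) w.1).1 = w := by
  decide +kernel

/-- The permutation given by a generator. -/
def big (i : Fin 7) : Equiv.Perm (Fin 24) :=
  ⟨fun w => look (fwd.getD i.1 0) w.1, fun w => look (bwd.getD i.1 0) w.1,
    fun w => (act_inverse i w).1, fun w => (act_inverse i w).2⟩

/-- The code of the projection of a generator. -/
def code (i : ℕ) : ℕ := down.getD i idCode

theorem test_code : ((List.range 7).all fun i => inStab [d0] 0 (code i)) = true := by decide +kernel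

theorem code_spec (i : Fin 7) : toPerm (code i.1) ∈ gM12 ∧ valid (code i.1) = true :=
  inStab_spec (List.all_eq_true.1 test_code i.1 (List.mem_range.2 i.2))

/-- The generators, by index. -/
noncomputable def gen (i : ℕ) : Equiv.Perm (Fin 24) × gM12 :=
  if h : i < 7 then (big ⟨i, h⟩, ⟨toPerm (code i), (code_spec ⟨i, h⟩).1⟩) else 1

/-- The action of a word on the 24 points of the cover. -/
def evBig (w : List ℕ) (x : Fin 24) : Fin 24 := w.foldr (fun i v => look (fwd.getD i 0) v.1) x

/-- The value of a word. -/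
noncomputable def ev (w : List ℕ) : Equiv.Perm (Fin 24) × gM12 := Engine.Data.ev gen w

theorem ev_spec : ∀ w : List ℕ, (∀ i ∈ w, i < 7) →
    (∀ x, (ev w).1 x = evBig w x) ∧
      ((ev w).2 : Equiv.Perm GolayPt) = ((w.map code).map toPerm).prod ∧
      ∀ q ∈ w.map code, valid q = true
  | [], _ => ⟨fun _ => rfl, rfl, fun _ h => absurd h (List.not_mem_nil)⟩
  | i :: w, h => by
    have hi := h i (List.mem_cons_self ..)
    obtain ⟨h1, h2, h3⟩ := ev_spec w fun j hj => h j (List.mem_cons_of_mem _ hj)
    have e : ev (i :: w) = gen i * ev w := rfl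
    refine ⟨fun x => ?_, ?_, fun q hq => ?_⟩
    · rw [e, Prod.fst_mul, Equiv.Perm.mul_apply, h1, gen, dif_pos hi]; rfl
    · rw [e, Prod.snd_mul, Subgroup.coe_mul, h2, gen, dif_pos hi]; rfl
    · rcases List.mem_cons.1 hq with rfl | hq
      · exact (code_spec ⟨i, hi⟩).2
      · exact h3 q hq

/-- Two words have the same value. -/
def eqWords (a b : List ℕ) : Bool :=
  (List.finRange 24).all (fun x => evBig a x == evBig b x) &&
    GolayEngine.same (a.map code) (b.map code)

theorem ev_eq {a b : List ℕ} (ha : ∀ i ∈ a, i < 7) (hb : ∀ i ∈ b, i < 7)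
    (h : eqWords a b = true) : ev a = ev b := by
  simp only [eqWords, Bool.and_eq_true, List.all_eq_true, beq_iff_eq] at h
  obtain ⟨a1, a2, a3⟩ := ev_spec a ha
  obtain ⟨b1, b2, b3⟩ := ev_spec b hb
  refine Prod.ext (Equiv.ext fun x => by rw [a1, b1]; exact h.1 x (List.mem_finRange x))
    (Subtype.ext ?_)
  rw [a2, b2]
  exact GolayEngine.same_spec a3 b3 h.2

/-- The number of generators of a level. -/
def width (L : ℕ) : ℕ := if L = 0 then 1 else L + 2

/-- The groups of the chain. -/
noncomputable def lev (L : ℕ) : Subgroup (Equiv.Perm (Fin 24) × gM12) :=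
  Subgroup.closure (gen '' {i | i < width L})

theorem gen_mem {L i : ℕ} (h : i < width L) : gen i ∈ lev L :=
  Subgroup.subset_closure ⟨i, h, rfl⟩

theorem ev_mem {L : ℕ} {w : List ℕ} (h : ∀ i ∈ w, i < width L) : ev w ∈ lev L := by
  refine Subgroup.list_prod_mem _ fun y hy => ?_
  obtain ⟨i, hi, rfl⟩ := List.mem_map.1 hy
  exact gen_mem (h i hi)

/-- A transversal word. -/
def tword (L j : ℕ) : List ℕ := (trans.getD L []).getD j []

/-- The right-hand side of a relation. -/
def rhsRel (L j i : ℕ) : List ℕ × ℕ := ((rels.getD L []).getD j []).getD i ([], 0)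

/-- The size of an orbit. -/
def size (L : ℕ) : ℕ := (orbits.getD L []).length

/-- The checks of a level. -/
def levelOK (L : ℕ) : Bool :=
  decide (0 < L) && decide (width (L - 1) ≤ width L) && decide (width L ≤ 7) && decide (0 < size L) && (tword L 0).isEmpty &&
  ((List.range (size L)).all fun j => (tword L j).all fun i => decide (i < width L)) &&
  ((List.range (size L)).all fun j => (List.range (width L)).all fun i =>
    (rhsRel L j i).1.all (fun k => decide (k < width (L - 1))) && decide ((rhsRel L j i).2 < size L) &&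
      eqWords (tword L j ++ [i]) ((rhsRel L j i).1 ++ tword L (rhsRel L j i).2)) &&
  ((List.range 24).all fun q =>
    !(d0.testBit q) || ((List.range 6).any fun l => decide (L < l) && decide (basePts.getD l 0 = q)) ||
      (orbits.getD L []).contains q) &&
  ((List.range (size L)).all fun j =>
    GolayEngine.run ((tword L j).map code) ((orbits.getD L []).getD j 0) == basePts.getD L 0 &&
      ((List.range 6).all fun l => decide (l ≤ L) ||
        GolayEngine.run ((tword L j).map code) (basePts.getD l 0) == basePts.getD l 0))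

theorem levels_ok : ((List.range 5).all fun L => levelOK (L + 1)) = true := by decide +kernel

theorem width_le : ∀ L, L ≤ 5 → width L ≤ 7 := by
  intro L h; unfold width; split <;> omega

theorem level_of {L : ℕ} (h₁ : 1 ≤ L) (h₅ : L ≤ 5) : levelOK L = true := by
  have := List.all_eq_true.1 levels_ok (L - 1) (List.mem_range.2 (by omega))
  rwa [Nat.sub_add_cancel h₁] at this

theorem mem_product {L : ℕ} (h₁ : 1 ≤ L) (h₅ : L ≤ 5) {g : Equiv.Perm (Fin 24) × gM12}
    (hg : g ∈ lev L) : ∃ h ∈ lev (L - 1), ∃ j : Fin (size L), g = h * ev (tword L j) := by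
  have hok := level_of h₁ h₅
  simp only [levelOK, Bool.and_eq_true, List.all_eq_true, List.mem_range, decide_eq_true_eq,
    List.isEmpty_iff] at hok
  obtain ⟨⟨⟨⟨⟨⟨-, hpos⟩, h0⟩, htw⟩, hrel⟩, -⟩, -⟩ := hok
  rw [lev, ← Subgroup.mem_toSubmonoid, Subgroup.closure_toSubmonoid_of_finite] at hg
  induction hg using Submonoid.closure_induction_right with
  | one => exact ⟨1, one_mem _, ⟨0, hpos⟩, by rw [h0]; simp [ev, Engine.Data.ev]⟩
  | mul_right x _ y hy ih =>
    obtain ⟨h, hh, j, rfl⟩ := ih
    obtain ⟨i, hi, rfl⟩ := hy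
    obtain ⟨⟨hk, hlt⟩, he⟩ := hrel j j.2 i hi
    refine ⟨h * ev (rhsRel L j i).1, mul_mem hh (ev_mem hk), ⟨_, hlt⟩, ?_⟩
    have hw := width_le L h₅
    have hw' := width_le (L - 1) (by omega)
    have := ev_eq (fun q hq => by
        rcases List.mem_append.1 hq with hq | hq
        · exact lt_of_lt_of_le (htw j j.2 q hq) hw
        · rw [List.mem_singleton.1 hq]; exact lt_of_lt_of_le hi hw)
      (fun q hq => by
        rcases List.mem_append.1 hq with hq | hq
        · exact lt_of_lt_of_le (hk q hq) hw'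
        · exact lt_of_lt_of_le (htw _ hlt q hq) hw) he
    simp only [ev, Engine.Data.ev_append] at this ⊢
    rw [mul_assoc h, mul_assoc h, ← this]
    simp [Engine.Data.ev]

theorem card_step {L : ℕ} (h₁ : 1 ≤ L) (h₅ : L ≤ 5) :
    Nat.card (lev L) ≤ Nat.card (lev (L - 1)) * size L := by
  have key : ∀ g : lev L, ∃ q : lev (L - 1) × Fin (size L),
      (g : Equiv.Perm (Fin 24) × gM12) = q.1.1 * ev (tword L q.2) := fun g => by
    obtain ⟨h, hh, j, e⟩ := mem_product h₁ h₅ g.2
    exact ⟨(⟨h, hh⟩, j), e⟩
  choose f hf using key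
  have := Nat.card_le_card_of_injective f fun a b hab => Subtype.ext (by rw [hf a, hf b, hab])
  simpa [Nat.card_prod] using this

theorem z_facts : eqWords [0, 0] [] = true ∧ evBig [0] 0 ≠ 0 ∧
    GolayEngine.same ([0].map code) [] = true ∧
    ((List.range 7).all fun i => eqWords [0, i] [i, 0]) = true ∧
    eqWords (commA ++ commB) ([0] ++ (commB ++ commA)) = true ∧
    (commA ++ commB).all (fun i => decide (i < 7)) = true ∧
    size 1 * size 2 * size 3 * size 4 * size 5 = 95040 := by
  decide +kernel

theorem orderOf_z : orderOf (gen 0) = 2 := by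
  obtain ⟨h2, hne, -⟩ := z_facts
  refine orderOf_eq_prime ?_ fun h => ?_
  · have := ev_eq (a := [0, 0]) (b := []) (by simp) (by simp) h2
    simpa [ev, Engine.Data.ev, pow_two] using this
  · apply hne
    rw [← (ev_spec [0] (by simp)).1, show ev [0] = gen 0 by simp [ev, Engine.Data.ev], h]
    rfl

theorem card_top : Nat.card (lev 5) ≤ 2 * 95040 := by
  have h0 : Nat.card (lev 0) ≤ 2 := by
    have : lev 0 = Subgroup.zpowers (gen 0) := by
      rw [lev, Subgroup.zpowers_eq_closure]
      congr 1
      ext x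
      simp [width, eq_comm]
    rw [this, Nat.card_zpowers, orderOf_z]
  have hs := z_facts.2.2.2.2.2.2
  calc Nat.card (lev 5) ≤ Nat.card (lev 4) * size 5 := card_step (L := 5) (by norm_num) le_rfl
    _ ≤ Nat.card (lev 3) * size 4 * size 5 :=
        Nat.mul_le_mul_right _ (card_step (L := 4) (by norm_num) (by norm_num))
    _ ≤ Nat.card (lev 2) * size 3 * size 4 * size 5 :=
        Nat.mul_le_mul_right _ (Nat.mul_le_mul_right _ (card_step (L := 3) (by norm_num) (by norm_num)))
    _ ≤ Nat.card (lev 1) * size 2 * size 3 * size 4 * size 5 :=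
        Nat.mul_le_mul_right _ (Nat.mul_le_mul_right _
          (Nat.mul_le_mul_right _ (card_step (L := 2) (by norm_num) (by norm_num))))
    _ ≤ Nat.card (lev 0) * size 1 * size 2 * size 3 * size 4 * size 5 :=
        Nat.mul_le_mul_right _ (Nat.mul_le_mul_right _ (Nat.mul_le_mul_right _
          (Nat.mul_le_mul_right _ (card_step (L := 1) (by norm_num) (by norm_num)))))
    _ ≤ 2 * size 1 * size 2 * size 3 * size 4 * size 5 := by gcongr
    _ = 2 * 95040 := by rw [← hs]; ring

theorem base_facts : ((List.range 5).all fun l =>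
    decide (basePts.getD (l + 1) 0 < 24) && d0.testBit (basePts.getD (l + 1) 0)) = true ∧
    ((List.range 5).map fun l => basePts.getD (l + 1) 0).Nodup := by
  decide +kernel

theorem lev_mono {L : ℕ} (h₅ : L ≤ 5) : lev L ≤ lev 5 :=
  Subgroup.closure_mono (Set.image_mono fun _ hi => lt_of_lt_of_le hi (width_le L h₅))

theorem surj : ∀ K ≤ 5, ∀ σ : gM12,
    (∀ l, K < l → l ≤ 5 → (σ : Equiv.Perm GolayPt) (pt (basePts.getD l 0)) = pt (basePts.getD l 0)) →
    ∃ x ∈ lev 5, x.2 = σ := by
  intro K
  induction K with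
  | zero =>
    intro _ σ hσ
    refine ⟨1, one_mem _, ?_⟩
    obtain ⟨hb, hnd⟩ := base_facts
    simp only [List.all_eq_true, List.mem_range, Bool.and_eq_true, decide_eq_true_eq] at hb
    let x : Fin 5 ↪ GolayPt := ⟨fun i => pt (basePts.getD (i.1 + 1) 0), fun i j hij => by
      have h := congrArg ix hij
      rw [ix_pt (hb i i.2).1, ix_pt (hb j j.2).1] at h
      exact Fin.ext (List.inj_on_of_nodup_map hnd (List.mem_range.2 i.2) (List.mem_range.2 j.2) h)⟩
    have hx : ∀ i, x i ∈ toSet d0 := fun i => by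
      rw [mem_toSet]
      show d0.testBit (ix (pt _)) = true
      rw [ix_pt (hb i i.2).1]
      exact (hb i i.2).2
    have hd : toSet d0 ∈ dodecads := d0_dodecad
    obtain ⟨u, -, hu⟩ := stSet_sharp hd x x hx hx
    have e : ∀ τ : gM12, (∀ i, (τ : Equiv.Perm GolayPt) (x i) = x i) →
        (τ : Equiv.Perm GolayPt) = u := fun τ hτ =>
      congrArg Subtype.val (hu ⟨τ, by rw [← gM12_eq]; exact τ.2⟩ hτ)
    exact Subtype.ext ((e 1 fun i => rfl).trans (e σ fun i => hσ _ (by omega) (by omega)).symm)
  | succ K ih =>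
    intro hK σ hσ
    have hok := level_of (L := K + 1) (by omega) hK
    simp only [levelOK, Bool.and_eq_true, List.all_eq_true, List.mem_range, decide_eq_true_eq,
      Bool.or_eq_true, Bool.not_eq_true', List.any_eq_true, beq_iff_eq, List.contains_iff_mem] at hok
    obtain ⟨⟨⟨⟨-, htw⟩, -⟩, horb⟩, hmap⟩ := hok
    obtain ⟨hb, -⟩ := base_facts
    simp only [List.all_eq_true, List.mem_range, Bool.and_eq_true, decide_eq_true_eq] at hb
    set b := basePts.getD (K + 1) 0 with hbdef
    have hb24 : b < 24 := (hb K (by omega)).1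
    set p := (σ : Equiv.Perm GolayPt)⁻¹ (pt b) with hp
    have hσp : (σ : Equiv.Perm GolayPt) p = pt b := (σ : Equiv.Perm GolayPt).apply_symm_apply _
    have hpd : d0.testBit (ix p) = true := by
      rw [← mem_toSet]
      refine apply_mem_of_smul ((mem_stabM.1 (inv_mem σ.2)).2.1 d0 (by simp)) ?_
      rw [mem_toSet, ix_pt hb24]
      exact (hb K (by omega)).2
    have hporb : ix p ∈ orbits.getD (K + 1) [] := by
      rcases horb (ix p) (ix_lt p) with (h | ⟨l, hl, hKl, hle⟩) | h
      · rw [hpd] at h; exact absurd h (by decide)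
      · exfalso
        have hfix := hσ l hKl (by omega)
        rw [hle, pt_ix] at hfix
        rw [hσp] at hfix
        have := congrArg ix hfix
        rw [ix_pt hb24, ← hle, hbdef] at this
        have h1 := List.inj_on_of_nodup_map base_facts.2 (List.mem_range.2 (show K < 5 by omega))
          (List.mem_range.2 (show l - 1 < 5 by omega))
          (by rw [Nat.sub_add_cancel (by omega : 1 ≤ l)]; exact this)
        omega
      · exact h
    obtain ⟨j, hj, hje⟩ := List.getElem_of_mem hporb
    have hjs : j < size (K + 1) := hj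
    obtain ⟨hto, hfx⟩ := hmap j hjs
    rw [List.getD_eq_getElem _ _ hj, hje] at hto
    have hw7 : ∀ i ∈ tword (K + 1) j, i < 7 := fun i hi =>
      lt_of_lt_of_le (htw j hjs i hi) (width_le _ hK)
    obtain ⟨-, ht2, ht3⟩ := ev_spec _ hw7
    set t := (ev (tword (K + 1) j)).2 with htdef
    have htp : ∀ q, q < 24 → (t : Equiv.Perm GolayPt) (pt q) =
        pt (GolayEngine.run ((tword (K + 1) j).map code) q) := fun q hq => by
      rw [ht2, (GolayEngine.run_spec ht3 hq).1]
    have htb : (t : Equiv.Perm GolayPt) p = pt b := by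
      rw [← pt_ix p, htp _ (ix_lt p), hto]
    have hfix' : ∀ l, K < l → l ≤ 5 →
        ((σ * t⁻¹ : gM12) : Equiv.Perm GolayPt) (pt (basePts.getD l 0)) = pt (basePts.getD l 0) := by
      intro l hl hl5
      rw [Subgroup.coe_mul, InvMemClass.coe_inv, Equiv.Perm.mul_apply]
      rcases eq_or_ne l (K + 1) with rfl | hne
      · rw [show (t : Equiv.Perm GolayPt)⁻¹ (pt b) = p by rw [Equiv.Perm.inv_eq_iff_eq, htb]]
        exact hσp
      · have hl24 : basePts.getD l 0 < 24 := by
          have := (hb (l - 1) (by omega)).1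
          rwa [Nat.sub_add_cancel (by omega : 1 ≤ l)] at this
        have htl : (t : Equiv.Perm GolayPt) (pt (basePts.getD l 0)) = pt (basePts.getD l 0) := by
          rw [htp _ hl24, (hfx l (by omega)).resolve_left (by omega)]
        rw [show (t : Equiv.Perm GolayPt)⁻¹ (pt (basePts.getD l 0)) = pt (basePts.getD l 0) by
          rw [Equiv.Perm.inv_eq_iff_eq, htl]]
        exact hσ l (by omega) hl5
    obtain ⟨x, hx, hxe⟩ := ih (by omega) _ hfix'
    exact ⟨x * ev (tword (K + 1) j),
      mul_mem hx (lev_mono hK (ev_mem fun i hi => htw j hjs i hi)),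
      by rw [Prod.snd_mul, hxe, ← htdef, inv_mul_cancel_right]⟩

theorem exists_cover : ∃ (Γ : Subgroup (Equiv.Perm (Fin 24) × gM12)) (σ : Γ →* gM12),
    Cfsg.IsStemExtension σ ∧ Nat.card σ.ker = 2 := by
  obtain ⟨-, -, hz1, hzc, hcomm, hcw, -⟩ := z_facts
  have hz0 : (gen 0).2 = 1 := by
    refine Subtype.ext ?_
    have h := GolayEngine.same_spec (v := [0].map code) (w := [])
      (fun q hq => by simp at hq; subst hq; exact (code_spec ⟨0, by norm_num⟩).2) (by simp) hz1
    simpa [gen] using h
  let σ : lev 5 →* gM12 := (MonoidHom.snd _ _).comp (lev 5).subtype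
  have hsurj : Function.Surjective σ := fun τ => by
    obtain ⟨x, hx, rfl⟩ := surj 5 le_rfl τ fun l hl hl5 => absurd hl (by omega)
    exact ⟨⟨x, hx⟩, rfl⟩
  let z : lev 5 := ⟨gen 0, gen_mem (by decide)⟩
  have hz : orderOf z = 2 := by rw [← Subgroup.orderOf_coe]; exact orderOf_z
  have hle : Nat.card σ.ker ≤ 2 := by
    have h1 := σ.ker.card_mul_index
    rw [Subgroup.index_ker, MonoidHom.range_eq_top.2 hsurj, Subgroup.card_top, gM12_card] at h1
    have := card_top
    omega
  have hker : σ.ker = Subgroup.zpowers z :=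
    (Subgroup.eq_of_le_of_card_ge (Subgroup.zpowers_le.2 hz0)
      (by rw [Nat.card_zpowers, hz]; exact hle)).symm
  refine ⟨lev 5, σ, ⟨hsurj, ?_, ?_⟩, by rw [hker, Nat.card_zpowers, hz]⟩
  · rw [hker, Subgroup.zpowers_le, Subgroup.mem_center_iff]
    rintro ⟨g, hg⟩
    refine Subtype.ext ?_
    show g * gen 0 = gen 0 * g
    have hle : lev 5 ≤ Subgroup.centralizer {gen 0} := by
      rw [lev, Subgroup.closure_le]
      rintro _ ⟨i, hi, rfl⟩
      rw [SetLike.mem_coe, Subgroup.mem_centralizer_singleton_iff]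
      have hi7 : i < 7 := lt_of_lt_of_le hi (width_le 5 le_rfl)
      have := ev_eq (a := [0, i]) (b := [i, 0]) (by simp [hi7]) (by simp [hi7])
        (List.all_eq_true.1 hzc i (List.mem_range.2 hi7))
      simpa [ev, Engine.Data.ev] using this.symm
    exact Subgroup.mem_centralizer_singleton_iff.1 (hle hg)
  · rw [hker, Subgroup.zpowers_le]
    simp only [List.all_eq_true, decide_eq_true_eq, List.mem_append] at hcw
    have hA : ev commA ∈ lev 5 := ev_mem fun i hi => hcw i (Or.inl hi)
    have hB : ev commB ∈ lev 5 := ev_mem fun i hi => hcw i (Or.inr hi)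
    have e : ⁅(⟨ev commA, hA⟩ : lev 5), (⟨ev commB, hB⟩ : lev 5)⁆ = z := by
      refine Subtype.ext ?_
      show ⁅ev commA, ev commB⁆ = gen 0
      have h := ev_eq (a := commA ++ commB) (b := [0] ++ (commB ++ commA))
        (fun i hi => hcw i (List.mem_append.1 hi))
        (fun i hi => by
          rcases List.mem_append.1 hi with hi | hi
          · simp at hi; omega
          · exact hcw i (List.mem_append.1 hi).symm) hcomm
      simp only [ev, Engine.Data.ev_append] at h
      rw [show Engine.Data.ev gen [0] = gen 0 by simp [Engine.Data.ev]] at h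
      simp only [ev, commutatorElement_def]
      rw [h]; group
    rw [← e]
    exact Subgroup.commutator_mem_commutator (Subgroup.mem_top _) (Subgroup.mem_top _)

end Cfsg.Agent.Lib.SchurTwelve
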